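import Cfsg.Agent.H669.OverCount
import Cfsg.Agent.OddOrderCharacters.PF9.CliffGen
import Cfsg.Agent.Blocks.Covering

/-!
# Counting characters over a stable set of characters of a normal subgroup

`H` normal in `G`, `b` a set of irreducible characters of `H` stable under `T ≤ G`, `B` a set of
irreducible characters of `G` each of which lies over a member of `b`: then
`|T| * #B ≤ ∑ θ ∈ b, |G_θ| * k(G_θ/H)`.
-/

set_option autoImplicit false
set_option linter.style.haveILetI false
set_option linter.unusedSectionVars false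

namespace Cfsg.Agent.H601.KGV

open Cfsg Cfsg.Agent.Characters.Core Cfsg.Agent.Characters.Clifford
  Cfsg.Agent.OddOrderCharacters.IndRes Cfsg.Agent.OddOrderCharacters.NormalInduced
  Cfsg.Agent.OddOrderCharacters.PF9.CliffGen Cfsg.Agent.Blocks.Covering

universe u

variable {G : Type u} [Group G] [Finite G]

/-- A character of `N`, as a character of `N.subgroupOf T`. -/
theorem isIrr_down {N T : Subgroup G} (h : N ≤ T) {θ : N → ℂ} (hθ : IsIrrCharacter N θ) :
    IsIrrCharacter (N.subgroupOf T) (down N T θ) :=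
  isIrr_comp (Subgroup.subgroupOfEquivOfLe h).toMonoidHom
    (Subgroup.subgroupOfEquivOfLe h).surjective hθ

/-- The number of irreducible characters over `θ` is at most `k(G_θ/H)`. -/
theorem card_over_le_inertia (H : Subgroup G) [hH : H.Normal] [Fintype H] (θ : IrrCharacter H) :
    Nat.card {χ : IrrCharacter G // classInner (fun n : H => (χ : G → ℂ) n) (θ : H → ℂ) ≠ 0} ≤
      Nat.card (ConjClasses (↥(inertia H (θ : H → ℂ)) ⧸ H.subgroupOf (inertia H (θ : H → ℂ)))) := by
  classical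
  letI := Fintype.ofFinite G
  set T := inertia H (θ : H → ℂ) with hT
  letI := Fintype.ofFinite T
  letI := Fintype.ofFinite (H.subgroupOf T)
  haveI := finite_irr (G := T)
  have hHT : H ≤ T := le_inertia (isIrr_isClassFunction θ.2)
  have hTm : ∀ g, g ∈ T ↔ conjFn H (θ : H → ℂ) g = θ := fun g => mem_inertia
  have hinv : ∀ (g : T) (n : H.subgroupOf T),
      down H T (θ : H → ℂ) ⟨g * n * g⁻¹, (inferInstance : (H.subgroupOf T).Normal).conj_mem (n : T) n.2 g⟩
        = down H T (θ : H → ℂ) n := by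
    intro g n
    have h1 : (g : G) ∈ inertia H (θ : H → ℂ) := g.2
    rw [mem_inertia'] at h1
    exact h1 ⟨(n : T), Subgroup.mem_subgroupOf.mp n.2⟩
  refine le_trans ?_ (H669.OverCount.card_over_le (H.subgroupOf T) (isIrr_down hHT θ.2) hinv)
  have key : ∀ χ : {χ : IrrCharacter G // classInner (fun n : H => (χ : G → ℂ) n) (θ : H → ℂ) ≠ 0},
      ∃ ψ : IrrCharacter T, classInner (fun n : H.subgroupOf T => (ψ : T → ℂ) n)
        (down H T (θ : H → ℂ)) ≠ 0 ∧ (χ.1 : G → ℂ) = indFun T (ψ : T → ℂ) := by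
    intro χ
    obtain ⟨ψ, hψ, h1, h2⟩ := exists_ind θ.2 hTm hHT χ.1.2 χ.2
    refine ⟨⟨ψ, hψ⟩, ?_, h2⟩
    have h3 := classInner_down hHT (resTo hHT ψ) (θ : H → ℂ)
    rw [← h3, ← res_eq_down hHT] at h1
    exact h1
  choose ψ hψ hχ using key
  refine Nat.card_le_card_of_injective (fun χ => ⟨ψ χ, hψ χ⟩) ?_
  intro χ χ' h
  have h1 : ψ χ = ψ χ' := congrArg Subtype.val h
  apply Subtype.ext
  apply Subtype.ext
  rw [hχ, hχ, h1]

theorem conjNormal_eq (H : Subgroup G) [hH : H.Normal] (g : G) (n : H) :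
    (MulAut.conjNormal g : MulAut H) n = ⟨g * n * g⁻¹, hH.conj_mem n n.2 g⟩ := by
  apply Subtype.ext
  rw [MulAut.conjNormal_apply]

theorem mem_inertia_iff {H : Subgroup G} [hH : H.Normal] {θ : IrrCharacter H} {g : G} :
    g ∈ inertia H (θ : H → ℂ) ↔ conjIrr H g θ = θ := by
  rw [mem_inertia']
  constructor
  · intro h
    apply Subtype.ext
    funext n
    rw [conjIrr_apply, conjNormal_eq]
    exact h n
  · intro h n
    have h1 := congrArg (fun ψ : IrrCharacter H => (ψ : H → ℂ) n) h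
    simp only [conjIrr_apply, conjNormal_eq] at h1
    exact h1

/-- The inertia groups of the `T`-conjugates of `θ₀` add up to at least `|T|`. -/
theorem card_le_sum_inertia (H : Subgroup G) [hH : H.Normal] (T : Subgroup G)
    (θ₀ : IrrCharacter H) (s : Finset (IrrCharacter H)) (hs : ∀ t ∈ T, conjIrr H t θ₀ ∈ s) :
    Nat.card T ≤ ∑ θ ∈ s, Nat.card (inertia H (θ : H → ℂ)) := by
  classical
  letI := Fintype.ofFinite T
  have hmaps : ∀ t ∈ (Finset.univ : Finset T), conjIrr H (t : G) θ₀ ∈ s := fun t _ => hs t t.2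
  rw [Nat.card_eq_fintype_card, ← Finset.card_univ,
    Finset.card_eq_sum_card_fiberwise (t := s) (fun t ht => hmaps t ht)]
  refine Finset.sum_le_sum fun θ _ => ?_
  have e : (Finset.univ.filter fun t : T => conjIrr H (t : G) θ₀ = θ).card =
      Nat.card {t : T // conjIrr H (t : G) θ₀ = θ} := by
    rw [Nat.card_eq_fintype_card, Fintype.card_subtype]
  rw [e]
  rcases isEmpty_or_nonempty {t : T // conjIrr H (t : G) θ₀ = θ} with h | ⟨⟨t₀, ht₀⟩⟩
  · rw [Nat.card_of_isEmpty]; exact Nat.zero_le _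
  · have hmem : ∀ t : {t : T // conjIrr H (t : G) θ₀ = θ},
        (t₀ : G)⁻¹ * (t.1 : G) ∈ inertia H (θ : H → ℂ) := by
      intro t
      obtain ⟨t, ht⟩ := t
      rw [mem_inertia_iff]
      have h1 : conjIrr H ((t₀ : G)⁻¹ * (t : G)) (conjIrr H (t₀ : G) θ₀) = θ := by
        rw [conjIrr_conjIrr, mul_inv_cancel_left]
        exact ht
      rwa [ht₀] at h1
    refine Nat.card_le_card_of_injective
      (fun t => (⟨(t₀ : G)⁻¹ * (t.1 : G), hmem t⟩ : inertia H (θ : H → ℂ))) ?_
    intro t t' h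
    have h1 := congrArg Subtype.val h
    exact Subtype.ext (Subtype.ext (mul_left_cancel h1))

/-- **The count.** -/
theorem card_mul_le (H : Subgroup G) [hH : H.Normal] [Fintype H] (T : Subgroup G)
    (b : Finset (IrrCharacter H)) (hbT : ∀ t ∈ T, ∀ θ ∈ b, conjIrr H t θ ∈ b)
    (B : Set (IrrCharacter G))
    (hB : ∀ χ ∈ B, ∃ θ ∈ b, classInner (fun n : H => (χ : G → ℂ) n) (θ : H → ℂ) ≠ 0) :
    Nat.card T * Nat.card B ≤ ∑ θ ∈ b, Nat.card (inertia H (θ : H → ℂ)) *
      Nat.card (ConjClasses (↥(inertia H (θ : H → ℂ)) ⧸ H.subgroupOf (inertia H (θ : H → ℂ)))) := by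
  classical
  letI := Fintype.ofFinite G
  haveI := finite_irr (G := G)
  letI := Fintype.ofFinite (IrrCharacter G)
  letI : Fintype B := Fintype.ofFinite B
  -- one character
  have h1 : ∀ χ ∈ B, Nat.card T ≤ ∑ θ ∈ b.filter (fun θ : IrrCharacter H =>
      classInner (fun n : H => (χ : G → ℂ) n) (θ : H → ℂ) ≠ 0),
        Nat.card (inertia H (θ : H → ℂ)) := by
    intro χ hχ
    obtain ⟨θ₀, hθ₀, h0⟩ := hB χ hχ
    refine card_le_sum_inertia H T θ₀ _ fun t ht => ?_
    rw [Finset.mem_filter]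
    refine ⟨hbT t ht θ₀ hθ₀, ?_⟩
    have h2 := classInner_restrict_conjNormal (N := H) (isIrr_isClassFunction χ.2)
      (θ₀ : H → ℂ) t
    have h3 : (conjIrr H t θ₀ : H → ℂ) = (θ₀ : H → ℂ) ∘ (MulAut.conjNormal t : MulAut H) := rfl
    rw [h3, h2]
    exact h0
  calc Nat.card T * Nat.card B = ∑ χ : B, Nat.card T := by
        rw [Finset.sum_const, Finset.card_univ, Nat.card_eq_fintype_card (α := B), smul_eq_mul,
          mul_comm]
    _ ≤ ∑ χ : B, ∑ θ ∈ b.filter (fun θ : IrrCharacter H =>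
      classInner (fun n : H => (χ.1 : G → ℂ) n) (θ : H → ℂ) ≠ 0),
        Nat.card (inertia H (θ : H → ℂ)) := Finset.sum_le_sum fun χ _ => h1 χ.1 χ.2
    _ = ∑ θ ∈ b, ∑ χ : B, if classInner (fun n : H => (χ.1 : G → ℂ) n) (θ : H → ℂ) ≠ 0 then
        Nat.card (inertia H (θ : H → ℂ)) else 0 := by
        rw [Finset.sum_comm]
        refine Finset.sum_congr rfl fun χ _ => ?_
        rw [Finset.sum_filter]
    _ ≤ _ := by
        refine Finset.sum_le_sum fun θ _ => ?_
        rw [← Finset.sum_filter, Finset.sum_const, smul_eq_mul, mul_comm]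
        refine Nat.mul_le_mul_left _ (le_trans ?_ (card_over_le_inertia H θ))
        have e : (Finset.univ.filter fun χ : B => classInner (fun n : H => (χ.1 : G → ℂ) n)
            (θ : H → ℂ) ≠ 0).card = Nat.card {χ : B // classInner (fun n : H => (χ.1 : G → ℂ) n)
            (θ : H → ℂ) ≠ 0} := by
          rw [Nat.card_eq_fintype_card, Fintype.card_subtype]
        rw [e]
        refine Nat.card_le_card_of_injective (fun χ => ⟨χ.1.1, χ.2⟩) ?_
        intro χ χ' h
        have h1 : (χ.1.1 : IrrCharacter G) = χ'.1.1 := Subtype.mk.inj h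
        exact Subtype.ext (Subtype.ext h1)

end Cfsg.Agent.H601.KGV
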