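import Cfsg.Agent.H601.KGV.Semi
import Cfsg.Agent.H591.KGV.Psolv
import Cfsg.Agent.Schreier.Tools2
import Cfsg.Agent.PLocal.PSolvable

/-!
# Counting characters in a block with normal defect group
-/

set_option autoImplicit false
set_option linter.style.haveILetI false
set_option linter.unusedSectionVars false

namespace Cfsg.Agent.H601.KGV

open Cfsg Cfsg.Agent.Characters.Core Cfsg.Agent.Characters.Clifford Cfsg.Agent.OddOrderCharacters
  Cfsg.Agent.OddOrderCharacters.IndRes Cfsg.Agent.OddOrderCharacters.NormalInduced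
  Cfsg.Agent.OddOrderCharacters.PF9.CliffGen Cfsg.Agent.Blocks.Covering
  Cfsg.Agent.H672 Cfsg.Agent.H672.RM

universe u v

/-- The group of inner automorphisms. -/
abbrev InnG (E : Type u) [Group E] : Subgroup (MulAut E) := (MulAut.conj : E →* MulAut E).range

theorem innG_conj {E : Type u} [Group E] (a : MulAut E) (e : E) :
    a * MulAut.conj e * a⁻¹ = MulAut.conj (a e) := by
  ext x
  simp only [MulAut.mul_apply, MulAut.conj_apply, map_mul, map_inv, MulAut.apply_inv_self]

instance innG_normal (E : Type u) [Group E] : (InnG E).Normal := by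
  constructor
  rintro _ ⟨e, rfl⟩ a
  exact ⟨a e, (innG_conj a e).symm⟩

/-- Schur-Zassenhaus for the image of `T` in `Aut E`. -/
theorem exists_complement {T : Type u} {E : Type v} [Group T] [Finite T] [Group E] [Finite E]
    (p : ℕ) [hp : Fact p.Prime] (hE : IsPGroup p E) (c : T →* MulAut E) (K : Subgroup T)
    [K.Normal] (h1 : ∀ k ∈ K, c k ∈ InnG E) (h2 : ∀ e : E, ∃ t : T, c t = MulAut.conj e)
    (h3 : ∀ t, c t ∈ InnG E → t ∈ K) (hidx : ¬ p ∣ K.index) :
    ∃ (A : Subgroup (MulAut E)) (π : T →* A), Function.Surjective π ∧ (∀ t, π t = 1 ↔ t ∈ K) ∧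
      (∀ t, ∃ e : E, c t = MulAut.conj e * (π t : MulAut E)) ∧ A ⊓ InnG E = ⊥ := by
  classical
  have hInnp : IsPGroup p (InnG E) := hE.of_surjective (MulAut.conj : E →* MulAut E).rangeRestrict
    (MulAut.conj : E →* MulAut E).rangeRestrict_surjective
  have hInnle : InnG E ≤ c.range := by
    rintro _ ⟨e, rfl⟩
    obtain ⟨t, ht⟩ := h2 e
    exact ⟨t, ht⟩
  set N : Subgroup c.range := (InnG E).subgroupOf c.range with hN
  haveI : Finite c.range := inferInstance
  let ρ : T →* c.range ⧸ N := (QuotientGroup.mk' N).comp c.rangeRestrict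
  have hρ : Function.Surjective ρ :=
    (QuotientGroup.mk'_surjective N).comp c.rangeRestrict_surjective
  have hρk : ∀ t, ρ t = 1 ↔ t ∈ K := by
    intro t
    have e1 : ρ t = 1 ↔ c t ∈ InnG E := by
      change ((c.rangeRestrict t : c.range) : c.range ⧸ N) = 1 ↔ _
      rw [QuotientGroup.eq_one_iff, hN, Subgroup.mem_subgroupOf]
      rfl
    rw [e1]
    exact ⟨h3 t, h1 t⟩
  have hidxN : N.index = K.index := by
    have hk : ρ.ker = K := by
      ext t
      rw [MonoidHom.mem_ker, hρk]
    rw [← hk, Subgroup.index_ker, MonoidHom.range_eq_top.2 hρ, Subgroup.card_top]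
    rfl
  have hNp : IsPGroup p N := by
    have e := Subgroup.subgroupOfEquivOfLe hInnle
    exact hInnp.of_equiv e.symm
  have hcop : Nat.Coprime (Nat.card N) N.index := by
    obtain ⟨n, hn⟩ := IsPGroup.iff_card.1 hNp
    rw [hn, hidxN]
    exact Nat.Coprime.pow_left _ ((Nat.Prime.coprime_iff_not_dvd hp.out).2 hidx)
  obtain ⟨A', hA'⟩ := Subgroup.exists_left_complement'_of_coprime hcop
  let q : c.range ⧸ N ≃* A' := hA'.QuotientMulEquiv
  have hq : ∀ a : A', q ((a : c.range) : c.range ⧸ N) = a := by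
    intro a
    exact q.symm.injective (by rw [MulEquiv.symm_apply_apply]; rfl)
  let e' : A' ≃* A'.map c.range.subtype :=
    A'.equivMapOfInjective c.range.subtype c.range.subtype_injective
  refine ⟨A'.map c.range.subtype, e'.toMonoidHom.comp (q.toMonoidHom.comp ρ), ?_, ?_, ?_, ?_⟩
  · exact e'.surjective.comp (q.surjective.comp hρ)
  · intro t
    rw [← hρk]
    change e' (q (ρ t)) = 1 ↔ _
    rw [EmbeddingLike.map_eq_one_iff, EmbeddingLike.map_eq_one_iff]
  · intro t
    have h4 : ((q (ρ t) : c.range) : c.range ⧸ N) = ρ t := by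
      apply q.injective
      rw [hq]
    have h5 : (c.rangeRestrict t * ((q (ρ t) : c.range))⁻¹ : c.range) ∈ N := by
      rw [← QuotientGroup.eq_one_iff, QuotientGroup.mk_mul, QuotientGroup.mk_inv, h4]
      exact mul_inv_cancel _
    obtain ⟨e, he⟩ := Subgroup.mem_subgroupOf.1 h5
    refine ⟨e, ?_⟩
    rw [he]
    change c t = (c t * (((q (ρ t) : c.range)) : MulAut E)⁻¹) * (((q (ρ t) : c.range)) : MulAut E)
    rw [inv_mul_cancel_right]
  · rw [eq_bot_iff]
    rintro _ ⟨⟨a, ha, rfl⟩, hb⟩
    have h4 : a ∈ A' ⊓ N := ⟨ha, hb⟩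
    rw [hA'.disjoint.eq_bot, Subgroup.mem_bot] at h4
    rw [h4]
    exact Subgroup.one_mem _

/-- `k(E ⋊ A) ≤ |E|` -/
theorem semi_le (hkgv : H591.KGV.KGVStatement.{u}) (p : ℕ) [hp : Fact p.Prime] {E : Type u}
    [Group E] [Finite E] (hE : IsPGroup p E) (A : Subgroup (MulAut E)) (hA : A ⊓ InnG E = ⊥)
    (hpA : ¬ p ∣ Nat.card A) : Nat.card (ConjClasses (E ⋊[A.subtype] A)) ≤ Nat.card E := by
  classical
  letI : Finite (E ⋊[A.subtype] A) :=
    Finite.of_equiv _ (SemidirectProduct.equivProd (φ := A.subtype)).symm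
  set H : Subgroup (E ⋊[A.subtype] A) := (SemidirectProduct.inl : E →* E ⋊[A.subtype] A).range with hH
  haveI hHn : H.Normal := by
    rw [hH, SemidirectProduct.range_inl_eq_ker_rightHom]
    exact MonoidHom.normal_ker _
  let e : E ≃* H := MonoidHom.ofInjective SemidirectProduct.inl_injective
  have hHp : IsPGroup p H := hE.of_equiv e
  have hcard : Nat.card (E ⋊[A.subtype] A) = Nat.card E * Nat.card A := by
    rw [Nat.card_congr (SemidirectProduct.equivProd (φ := A.subtype)), Nat.card_prod]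
  have hcH : Nat.card H = Nat.card E := (Nat.card_congr e.toEquiv).symm
  have hidx : H.index = Nat.card A := by
    have h1 := H.card_mul_index
    rw [hcH, hcard] at h1
    exact Nat.eq_of_mul_eq_mul_left Nat.card_pos h1
  have hcopA : (Nat.card A).Coprime p := ((Nat.Prime.coprime_iff_not_dvd hp.out).2 hpA).symm
  have hsolv : IsPSolvable p (E ⋊[A.subtype] A) := by
    refine Lib.PSolvable.IsPSolvable_of_extension p H (PLocal.PSolvable.isPSolvable_of_isPGroup hHp)
      (PLocal.PSolvable.isPSolvable_of_coprime ?_)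
    rw [← Subgroup.index_eq_card, hidx]
    exact hcopA
  have hcore : pPrimeCore p (E ⋊[A.subtype] A) = ⊥ := by
    set N := pPrimeCore p (E ⋊[A.subtype] A) with hNdef
    haveI hNn : N.Normal := Lib.Cores.pPrimeCore_normal p
    have hNc : (Nat.card N).Coprime p := Lib.Cores.pPrimeCore_coprime p
    rw [eq_bot_iff]
    intro x hx
    -- `x` centralises `E`
    have hcomm : ∀ d : E, x * SemidirectProduct.inl d * x⁻¹ = SemidirectProduct.inl d := by
      intro d
      have h1 : x * SemidirectProduct.inl d * x⁻¹ * (SemidirectProduct.inl d)⁻¹ ∈ H :=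
        H.mul_mem (hHn.conj_mem _ ⟨d, rfl⟩ x) (H.inv_mem ⟨d, rfl⟩)
      have h2 : x * SemidirectProduct.inl d * x⁻¹ * (SemidirectProduct.inl d)⁻¹ ∈ N := by
        have := N.mul_mem hx (hNn.conj_mem _ (N.inv_mem hx) (SemidirectProduct.inl d))
        have e1 : x * SemidirectProduct.inl d * x⁻¹ * (SemidirectProduct.inl d)⁻¹ =
          x * (SemidirectProduct.inl d * x⁻¹ * (SemidirectProduct.inl d)⁻¹) := by group
        rw [e1]
        exact this
      have h3 := H591.KGV.eq_one_of_mem hHp hNc h1 h2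
      rwa [mul_inv_eq_one] at h3
    have hfix : ∀ d : E, x.left * (x.right : MulAut E) d * x.left⁻¹ = d := by
      intro d
      apply SemidirectProduct.inl_injective (φ := A.subtype)
      rw [← hcomm d]
      ext
      · simp [mul_assoc]
      · simp
    have hr : (x.right : MulAut E) ∈ A ⊓ InnG E := by
      refine ⟨x.right.2, x.left⁻¹, ?_⟩
      ext d
      rw [MulAut.conj_apply]
      conv_lhs => rw [← hfix d]
      group
    rw [hA, Subgroup.mem_bot] at hr
    have hxH : x ∈ H := by
      rw [hH, SemidirectProduct.range_inl_eq_ker_rightHom, MonoidHom.mem_ker]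
      exact Subtype.ext hr
    rw [Subgroup.mem_bot]
    exact H591.KGV.eq_one_of_mem hHp hNc hxH hx
  obtain ⟨P⟩ : Nonempty (Sylow p (E ⋊[A.subtype] A)) := inferInstance
  refine (H591.KGV.s4961 hkgv p hsolv hcore P).1.trans (le_of_eq ?_)
  rw [P.card_eq_multiplicity, hcard, Nat.factorization_mul Nat.card_pos.ne' Nat.card_pos.ne',
    Finsupp.add_apply, Nat.factorization_eq_zero_of_not_dvd hpA, add_zero]
  exact (H591.KGV.card_eq_pow hE).symm

end Cfsg.Agent.H601.KGV
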