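import Cfsg.Agent.H601.KGV.NormCount
import Cfsg.Agent.Blocks.Deflate
import Cfsg.Agent.Lib.FrattiniBasic
import Cfsg.Agent.CharactersDeep.LinearExt

/-!
# Counting characters in a block with normal defect group: the main count
-/

set_option autoImplicit false
set_option linter.style.haveILetI false
set_option linter.unusedSectionVars false

namespace Cfsg.Agent.H601.KGV

open Cfsg Cfsg.Agent.Characters.Core Cfsg.Agent.Characters.Clifford Cfsg.Agent.OddOrderCharacters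
  Cfsg.Agent.OddOrderCharacters.IndRes Cfsg.Agent.OddOrderCharacters.NormalInduced
  Cfsg.Agent.OddOrderCharacters.PF9.CliffGen Cfsg.Agent.Blocks.Covering
  Cfsg.Agent.H672 Cfsg.Agent.H672.RM

universe u v

/-- The count for a homomorphism `c : T → Aut E`. -/
theorem card_le_general {G : Type u} [Group G] [Finite G] (hkgv : H591.KGV.KGVStatement.{u})
    (p : ℕ) [hp : Fact p.Prime] {E : Type u} [Group E] [Finite E] (hE : IsPGroup p E)
    (H T : Subgroup G) [hH : H.Normal] [Fintype H] (hHT : H ≤ T) (c : T →* MulAut E)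
    (hc1 : ∀ t : T, (t : G) ∈ H → c t ∈ InnG E) (hc2 : ∀ e : E, ∃ t : T, c t = MulAut.conj e)
    (hc3 : ∀ t : T, c t ∈ InnG E → (t : G) ∈ H) (hpT : ¬ p ∣ H.relIndex T)
    (b : Finset (IrrCharacter H)) (hbT : ∀ t ∈ T, ∀ θ ∈ b, conjIrr H t θ ∈ b)
    (f : IrrCharacter H → IrrCharacter E) (hf : ∀ θ ∈ b, ∀ θ' ∈ b, f θ = f θ' → θ = θ')
    (hin : ∀ θ ∈ b, ∀ g : G, g ∈ PF9.CliffGen.inertia H (θ : H → ℂ) ↔
      ∃ h : g ∈ T, ∀ e, (f θ : E → ℂ) (c ⟨g, h⟩ e) = (f θ : E → ℂ) e)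
    (B : Set (IrrCharacter G))
    (hB : ∀ χ ∈ B, ∃ θ ∈ b, classInner (fun n : H => (χ : G → ℂ) n) (θ : H → ℂ) ≠ 0) :
    Nat.card B ≤ Nat.card E := by
  classical
  obtain ⟨A, π, hπ, hπk, hπc, hA⟩ := exists_complement p hE c (H.subgroupOf T)
    (fun k hk => hc1 k (Subgroup.mem_subgroupOf.1 hk)) hc2
    (fun t ht => Subgroup.mem_subgroupOf.2 (hc3 t ht)) hpT
  haveI := finite_irr (G := E)
  letI := Fintype.ofFinite (IrrCharacter E)
  -- the order of `T`
  obtain ⟨hT, -⟩ := quot_eq H T hHT π hπ (fun s => by rw [hπk, Subgroup.mem_subgroupOf])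
  have hpA : ¬ p ∣ Nat.card A := by
    have h1 : H.relIndex T = Nat.card A := by
      have h2 : Nat.card (H.subgroupOf T) * (H.subgroupOf T).index = Nat.card T :=
        (H.subgroupOf T).card_mul_index
      rw [Nat.card_congr (Subgroup.subgroupOfEquivOfLe hHT).toEquiv, hT] at h2
      exact Nat.eq_of_mul_eq_mul_left Nat.card_pos h2
    rwa [← h1]
  have hcop : (Nat.card E).Coprime (Nat.card A) := by
    obtain ⟨n, hn⟩ := IsPGroup.iff_card.1 hE
    rw [hn]
    exact Nat.Coprime.pow_left _ ((Nat.Prime.coprime_iff_not_dvd hp.out).2 hpA)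
  -- characters of `E` and `π`
  have hcπ : ∀ (lam : IrrCharacter E) (t : T) (e : E),
      (lam : E → ℂ) (c t e) = (lam : E → ℂ) ((π t : MulAut E) e) := by
    intro lam t e
    obtain ⟨x, hx⟩ := hπc t
    rw [hx, MulAut.mul_apply, MulAut.conj_apply]
    exact isIrr_isClassFunction lam.2 _ _
  -- the terms
  have hterm : ∀ θ ∈ b, Nat.card (PF9.CliffGen.inertia H (θ : H → ℂ)) *
      Nat.card (ConjClasses (↥(PF9.CliffGen.inertia H (θ : H → ℂ)) ⧸
        H.subgroupOf (PF9.CliffGen.inertia H (θ : H → ℂ)))) =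
      Nat.card H * (Nat.card (stA A.subtype (f θ)) * Nat.card (ConjClasses (stA A.subtype (f θ)))) := by
    intro θ hθ
    have hHS : H ≤ PF9.CliffGen.inertia H (θ : H → ℂ) :=
      PF9.CliffGen.le_inertia (isIrr_isClassFunction θ.2)
    have hST : ∀ s : PF9.CliffGen.inertia H (θ : H → ℂ), (s : G) ∈ T := fun s =>
      ((hin θ hθ s).1 s.2).1
    have hmem : ∀ s : PF9.CliffGen.inertia H (θ : H → ℂ), π ⟨s, hST s⟩ ∈ stA A.subtype (f θ) := by
      intro s e
      obtain ⟨h1, h2⟩ := (hin θ hθ s).1 s.2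
      have h3 := hcπ (f θ) ⟨s, hST s⟩ e
      rw [h2] at h3
      exact h3.symm
    let πS : PF9.CliffGen.inertia H (θ : H → ℂ) →* stA A.subtype (f θ) :=
      { toFun := fun s => ⟨π ⟨s, hST s⟩, hmem s⟩
        map_one' := Subtype.ext (map_one π)
        map_mul' := fun x y => Subtype.ext (map_mul π ⟨x, hST x⟩ ⟨y, hST y⟩) }
    have hπS : Function.Surjective πS := by
      rintro ⟨a, ha⟩
      obtain ⟨t, rfl⟩ := hπ a
      have h1 : (t : G) ∈ PF9.CliffGen.inertia H (θ : H → ℂ) := by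
        rw [hin θ hθ]
        refine ⟨t.2, fun e => ?_⟩
        rw [hcπ]
        exact ha e
      exact ⟨⟨t, h1⟩, rfl⟩
    have hk : ∀ s : PF9.CliffGen.inertia H (θ : H → ℂ), πS s = 1 ↔ (s : G) ∈ H := by
      intro s
      have h1 : πS s = 1 ↔ π ⟨s, hST s⟩ = 1 := by
        rw [Subtype.ext_iff]
        rfl
      rw [h1, hπk, Subgroup.mem_subgroupOf]
    obtain ⟨h1, h2⟩ := quot_eq H _ hHS πS hπS hk
    rw [h1, h2, mul_assoc]
  have h1 := card_mul_le H T b hbT B hB
  rw [Finset.sum_congr rfl hterm, ← Finset.mul_sum, hT] at h1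
  have h2 : ∑ θ ∈ b, Nat.card (stA A.subtype (f θ)) * Nat.card (ConjClasses (stA A.subtype (f θ))) ≤
      ∑ lam : IrrCharacter E,
        Nat.card (stA A.subtype lam) * Nat.card (ConjClasses (stA A.subtype lam)) := by
    have h3 : ∑ lam ∈ b.image f,
        Nat.card (stA A.subtype lam) * Nat.card (ConjClasses (stA A.subtype lam)) =
        ∑ θ ∈ b, Nat.card (stA A.subtype (f θ)) * Nat.card (ConjClasses (stA A.subtype (f θ))) :=
      Finset.sum_image (fun θ hθ θ' hθ' h => hf θ hθ θ' hθ' h)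
    rw [← h3]
    exact Finset.sum_le_sum_of_subset (Finset.subset_univ _)
  have h3 := semi_sum_le A.subtype hcop
  have h4 := semi_le hkgv p hE A hA hpA
  have h5 : Nat.card H * Nat.card A * Nat.card B ≤ Nat.card H * Nat.card A * Nat.card E :=
    h1.trans ((Nat.mul_le_mul_left _ (h2.trans (h3.trans (Nat.mul_le_mul_left _ h4)))).trans
      (by rw [mul_assoc]))
  exact Nat.le_of_mul_le_mul_left h5 (Nat.mul_pos Nat.card_pos Nat.card_pos)

/-- Automorphisms of the quotient by a characteristic subgroup. -/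
noncomputable def autQuot {D : Type u} [Group D] (D1 : Subgroup D) [D1.Characteristic] :
    MulAut D →* MulAut (D ⧸ D1) where
  toFun a := QuotientGroup.congr D1 D1 a (Subgroup.characteristic_iff_map_eq.1 inferInstance a)
  map_one' := by
    ext x
    obtain ⟨d, rfl⟩ := QuotientGroup.mk_surjective x
    rfl
  map_mul' a b := by
    ext x
    obtain ⟨d, rfl⟩ := QuotientGroup.mk_surjective x
    rfl

theorem autQuot_mk {D : Type u} [Group D] (D1 : Subgroup D) [D1.Characteristic] (a : MulAut D)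
    (d : D) : autQuot D1 a (d : D ⧸ D1) = ((a d : D) : D ⧸ D1) := rfl

/-- Proportional irreducible characters are equal. -/
theorem eq_of_proportional {D : Type u} [Group D] [Finite D] (l l' : IrrCharacter D)
    (h : ∀ y : D, (l' : D → ℂ) y * (l : D → ℂ) 1 = (l : D → ℂ) y * (l' : D → ℂ) 1) : l' = l := by
  classical
  letI := Fintype.ofFinite D
  by_contra hne
  have h1 : (l' : D → ℂ) ≠ (l : D → ℂ) := fun h => hne (Subtype.ext h)
  have h2 := classInner_irr_ne l'.2 l.2 h1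
  have h3 : (l : D → ℂ) 1 ≠ 0 := isIrr_apply_one_ne_zero l.2
  have h4 : (l' : D → ℂ) = ((l' : D → ℂ) 1 / (l : D → ℂ) 1) • (l : D → ℂ) := by
    funext y
    rw [Pi.smul_apply, smul_eq_mul, div_mul_eq_mul_div, eq_div_iff h3, h y, mul_comm]
  rw [h4, classInner_smul_left, classInner_irr_self l.2, mul_one, div_eq_zero_iff] at h2
  rcases h2 with h2 | h2
  · exact isIrr_apply_one_ne_zero l'.2 h2
  · exact h3 h2

/-- **The count for a normal `p`-subgroup `D`** -/
theorem card_le_frattini {G : Type u} [Group G] [Finite G] (hkgv : H591.KGV.KGVStatement.{u})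
    (p : ℕ) [hp : Fact p.Prime] (D : Subgroup G) [hDn : D.Normal] (hD : IsPGroup p D)
    (H : Subgroup G) [hHn : H.Normal] [Fintype H] (hH : H = D ⊔ Subgroup.centralizer (D : Set G))
    (T : Subgroup G) (hHT : H ≤ T) (hpT : ¬ p ∣ H.relIndex T) (b : Set (IrrCharacter H))
    (hbT : ∀ t ∈ T, ∀ θ ∈ b, ∀ θ' : IrrCharacter H,
      (∀ h h' : H, (h' : G) = t * h * t⁻¹ → (θ' : H → ℂ) h' = (θ : H → ℂ) h) → θ' ∈ b)
    (hbT' : ∀ g : G, ∀ θ ∈ b,
      (∀ h h' : H, (h' : G) = g * h * g⁻¹ → (θ : H → ℂ) h' = (θ : H → ℂ) h) → g ∈ T)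
    (f : IrrCharacter H → IrrCharacter D) (hf : ∀ θ ∈ b, ∀ θ' ∈ b, f θ = f θ' → θ = θ')
    (hres : ∀ θ ∈ b, ∀ (y : D) (y' : H), (y' : G) = y →
      (θ : H → ℂ) y' * (f θ : D → ℂ) 1 = (θ : H → ℂ) 1 * (f θ : D → ℂ) y)
    (D1 : Subgroup D) [hD1 : D1.Characteristic] (hD1f : D1 ≤ frattini D)
    (hD1k : ∀ θ ∈ b, ∀ y ∈ D1, (f θ : D → ℂ) y = (f θ : D → ℂ) 1)
    (B : Set (IrrCharacter G))
    (hB : ∀ χ ∈ B, ∃ θ ∈ b, classInner (fun n : H => (χ : G → ℂ) n) (θ : H → ℂ) ≠ 0) :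
    Nat.card B ≤ D1.index := by
  classical
  haveI := finite_irr (G := H)
  letI := Fintype.ofFinite (IrrCharacter H)
  letI := Fintype.ofFinite D1
  have hDH : D ≤ H := hH ▸ le_sup_left
  have hCH : Subgroup.centralizer (D : Set G) ≤ H := hH ▸ le_sup_right
  -- the characters of the quotient
  have hdef : ∀ θ : IrrCharacter H, ∃ l : IrrCharacter (D ⧸ D1), θ ∈ b →
      ∀ d : D, (l : D ⧸ D1 → ℂ) (d : D ⧸ D1) = (f θ : D → ℂ) d := by
    intro θ
    by_cases hθ : θ ∈ b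
    · obtain ⟨l, hl⟩ := Blocks.Deflate.exists_deflation D1 (f θ : D → ℂ) (f θ).2 (by
        have h1 : ∑ n : D1, (f θ : D → ℂ) n = ∑ n : D1, (f θ : D → ℂ) 1 :=
          Finset.sum_congr rfl fun n _ => hD1k θ hθ (n : D) n.2
        rw [h1, Finset.sum_const, Finset.card_univ, nsmul_eq_mul]
        exact mul_ne_zero (by exact_mod_cast Fintype.card_ne_zero) (isIrr_apply_one_ne_zero (f θ).2))
      exact ⟨l, fun _ d => (congrFun hl d).symm⟩
    · exact ⟨⟨1, isIrr_one⟩, fun h => absurd h hθ⟩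
  choose F hF using hdef
  -- the homomorphism
  let c : T →* MulAut (D ⧸ D1) := (autQuot D1).comp ((MulAut.conjNormal (H := D)).comp T.subtype)
  have hc : ∀ (t : T) (d : D), c t (d : D ⧸ D1) =
      ((⟨t * d * (t : G)⁻¹, hDn.conj_mem d d.2 t⟩ : D) : D ⧸ D1) := by
    intro t d
    change autQuot D1 (MulAut.conjNormal (t : G)) (d : D ⧸ D1) = _
    rw [autQuot_mk]
    congr 1
  have hcconj : ∀ (t : T) (e : D), (∀ d : D, (t : G) * d * (t : G)⁻¹ = e * d * (e : G)⁻¹) →
      c t = MulAut.conj (e : D ⧸ D1) := by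
    intro t e h
    ext x
    obtain ⟨d, rfl⟩ := QuotientGroup.mk_surjective x
    rw [hc, MulAut.conj_apply]
    have h1 : (⟨t * d * (t : G)⁻¹, hDn.conj_mem d d.2 t⟩ : D) = e * d * e⁻¹ := Subtype.ext (h d)
    rw [h1]
    rfl
  -- conjugation in `H`
  have hmemT : ∀ t ∈ T, ∀ θ ∈ b, conjIrr H t θ ∈ b := by
    intro t ht θ hθ
    refine hbT t⁻¹ (T.inv_mem ht) θ hθ _ fun h h' hh => ?_
    rw [conjIrr_apply, conjNormal_eq]
    have e1 : (⟨t * h' * t⁻¹, hHn.conj_mem h' h'.2 t⟩ : H) = h :=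
      Subtype.ext (by change t * (h' : G) * t⁻¹ = h; rw [hh]; group)
    rw [e1]
  have key := card_le_general hkgv p (hD.to_quotient D1) H T hHT c ?_ ?_ ?_ hpT b.toFinset
    (fun t ht θ hθ => by
      rw [Set.mem_toFinset] at hθ ⊢
      exact hmemT t ht θ hθ) F ?_ ?_ B (fun χ hχ => by
      obtain ⟨θ, hθ, h⟩ := hB χ hχ
      exact ⟨θ, by rw [Set.mem_toFinset]; exact hθ, h⟩)
  · rwa [← Subgroup.index_eq_card] at key
  · -- elements of `H` act as inner automorphisms
    intro t ht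
    rw [hH, Subgroup.mem_sup_of_normal_left] at ht
    obtain ⟨d, hd, z, hz, hdz⟩ := ht
    refine ⟨((⟨d, hd⟩ : D) : D ⧸ D1), (hcconj t ⟨d, hd⟩ fun x => ?_).symm⟩
    rw [Subgroup.mem_centralizer_iff] at hz
    have h1 := hz x x.2
    rw [← hdz]
    calc d * z * (x : G) * (d * z)⁻¹ = d * (z * (x : G)) * z⁻¹ * d⁻¹ := by group
      _ = d * x * d⁻¹ := by rw [← h1]; group
  · intro e
    obtain ⟨d, rfl⟩ := QuotientGroup.mk_surjective e
    exact ⟨⟨d, hHT (hDH d.2)⟩, hcconj _ d fun x => rfl⟩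
  · -- an element acting as an inner automorphism is in `H`
    rintro t ⟨e, he⟩
    obtain ⟨d, rfl⟩ := QuotientGroup.mk_surjective e
    -- `g = d⁻¹ t` acts trivially on `D / D1`
    set g : G := (d : G)⁻¹ * t with hg
    have hgT : g ∈ T := T.mul_mem (T.inv_mem (hHT (hDH d.2))) t.2
    have hact : ∀ x : D, (⟨g * x * g⁻¹, hDn.conj_mem x x.2 g⟩ : D) * x⁻¹ ∈ D1 := by
      intro x
      have h1 : c t (x : D ⧸ D1) = MulAut.conj (d : D ⧸ D1) (x : D ⧸ D1) := by rw [he]
      rw [hc, MulAut.conj_apply] at h1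
      have h2 : ((⟨g * x * g⁻¹, hDn.conj_mem x x.2 g⟩ : D) : D ⧸ D1) = (x : D ⧸ D1) := by
        have h3 : (⟨g * x * g⁻¹, hDn.conj_mem x x.2 g⟩ : D) =
            d⁻¹ * ⟨t * x * (t : G)⁻¹, hDn.conj_mem x x.2 t⟩ * d := by
          apply Subtype.ext
          rw [hg]
          push_cast
          group
        rw [h3, QuotientGroup.mk_mul, QuotientGroup.mk_mul, h1, QuotientGroup.mk_inv]
        group
      rw [← QuotientGroup.eq_one_iff, QuotientGroup.mk_mul, QuotientGroup.mk_inv, h2,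
        mul_inv_cancel]
    have hgH : g ∈ H := by
      -- the group generated by the automorphism is a `p`-group
      have hR : IsPGroup p (Subgroup.zpowers (MulAut.conjNormal g : MulAut D)) := by
        refine Schreier.Tools2.isPGroup_of_trivial_mod_frattini hD _ ?_
        let A : Subgroup (MulAut D) :=
          { carrier := {α | ∀ x : D, α x * x⁻¹ ∈ frattini D}
            one_mem' := fun x => by simp
            mul_mem' := by
              intro a b ha hb x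
              have h1 : (a * b) x * x⁻¹ = (a (b x) * (b x)⁻¹) * (b x * x⁻¹) := by
                rw [MulAut.mul_apply]; group
              rw [h1]
              exact mul_mem (ha _) (hb _)
            inv_mem' := by
              intro a ha x
              have h1 := ha (a⁻¹ x)
              have h2 : a (a⁻¹ x) = x := by
                rw [← MulAut.mul_apply, mul_inv_cancel, MulAut.one_apply]
              rw [h2] at h1
              have h3 := (frattini D).inv_mem h1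
              rw [mul_inv_rev, inv_inv] at h3
              exact h3 }
        have hgA : (MulAut.conjNormal g : MulAut D) ∈ A := by
          intro x
          have h1 := hD1f (hact x)
          rwa [← conjNormal_eq] at h1
        intro φ hφ
        exact (Subgroup.zpowers_le.2 hgA) hφ
      obtain ⟨k, hk⟩ := hR ⟨MulAut.conjNormal g, Subgroup.mem_zpowers _⟩
      have hk' : (MulAut.conjNormal g : MulAut D) ^ p ^ k = 1 := congrArg Subtype.val hk
      have hgk : g ^ p ^ k ∈ H := by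
        apply hCH
        rw [Subgroup.mem_centralizer_iff]
        intro x hx
        have h1 : MulAut.conjNormal (g ^ p ^ k) (⟨x, hx⟩ : D) = ⟨x, hx⟩ := by
          rw [map_pow, hk', MulAut.one_apply]
        have h2 := congrArg Subtype.val h1
        rw [MulAut.conjNormal_apply] at h2
        rw [mul_inv_eq_iff_eq_mul] at h2
        exact h2.symm
      -- `p ∤ |T : H|`
      let gT : T := ⟨g, hgT⟩
      have h1 : (gT : T ⧸ H.subgroupOf T) ^ p ^ k = 1 := by
        rw [← QuotientGroup.mk_pow, QuotientGroup.eq_one_iff, Subgroup.mem_subgroupOf]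
        exact hgk
      have h2 : orderOf (gT : T ⧸ H.subgroupOf T) ∣ p ^ k := orderOf_dvd_of_pow_eq_one h1
      have h3 : orderOf (gT : T ⧸ H.subgroupOf T) ∣ Nat.card (T ⧸ H.subgroupOf T) :=
        orderOf_dvd_natCard _
      have h4 : Nat.Coprime (p ^ k) (Nat.card (T ⧸ H.subgroupOf T)) :=
        Nat.Coprime.pow_left _ ((Nat.Prime.coprime_iff_not_dvd hp.out).2 hpT)
      have h5 := orderOf_eq_one_iff.1 (Nat.dvd_one.1 (h4 ▸ Nat.dvd_gcd h2 h3))
      rw [QuotientGroup.eq_one_iff, Subgroup.mem_subgroupOf] at h5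
      exact h5
    have h1 : (t : G) = d * g := by rw [hg]; group
    rw [h1]
    exact H.mul_mem (hDH d.2) hgH
  · -- injectivity
    intro θ hθ θ' hθ' h
    rw [Set.mem_toFinset] at hθ hθ'
    refine hf θ hθ θ' hθ' (Subtype.ext (funext fun d => ?_))
    rw [← hF θ hθ d, ← hF θ' hθ' d, h]
  · -- inertia groups
    intro θ hθ g
    rw [Set.mem_toFinset] at hθ
    have hθ1 : (θ : H → ℂ) 1 ≠ 0 := isIrr_apply_one_ne_zero θ.2
    have hf1 : (f θ : D → ℂ) 1 ≠ 0 := isIrr_apply_one_ne_zero (f θ).2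
    constructor
    · intro hg
      have hgT : g ∈ T := by
        refine hbT' g θ hθ fun h h' hh => ?_
        rw [← PF9.CliffGen.mem_inertia'.1 hg h]
        have e1 : h' = ⟨g * h * g⁻¹, hHn.conj_mem h h.2 g⟩ := Subtype.ext hh
        rw [e1]
      refine ⟨hgT, fun e => ?_⟩
      obtain ⟨d, rfl⟩ := QuotientGroup.mk_surjective e
      rw [hc, hF θ hθ, hF θ hθ]
      have h1 := hres θ hθ d ⟨d, hDH d.2⟩ rfl
      have h2 := hres θ hθ ⟨g * d * g⁻¹, hDn.conj_mem d d.2 g⟩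
        ⟨g * d * g⁻¹, hHn.conj_mem _ (hDH d.2) g⟩ rfl
      have h3 := PF9.CliffGen.mem_inertia'.1 hg ⟨d, hDH d.2⟩
      rw [h3, h1] at h2
      exact (mul_left_cancel₀ hθ1 h2).symm
    · rintro ⟨hgT, h⟩
      rw [KGV.mem_inertia_iff]
      have hθ' := hmemT g hgT θ hθ
      refine (hf θ hθ _ hθ' ?_).symm
      refine (eq_of_proportional _ _ fun y => ?_).symm
      have h1 := hres θ hθ ⟨g * y * g⁻¹, hDn.conj_mem y y.2 g⟩
        ⟨g * y * g⁻¹, hHn.conj_mem _ (hDH y.2) g⟩ rfl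
      have h2 := hres _ hθ' y ⟨y, hDH y.2⟩ rfl
      have h3 := h (y : D ⧸ D1)
      rw [hc, hF θ hθ, hF θ hθ] at h3
      rw [h3] at h1
      rw [conjIrr_at_one, conjIrr_apply, conjNormal_eq] at h2
      apply mul_left_cancel₀ hθ1
      linear_combination (-(f θ : D → ℂ) 1) * h2 + (f (conjIrr H g θ) : D → ℂ) 1 * h1

/-- `k(B) ≤ |D|` from the block data. -/
theorem card_le {G : Type u} [Group G] [Finite G] (hkgv : H591.KGV.KGVStatement.{u})
    (p : ℕ) [hp : Fact p.Prime] (D : Subgroup G) [hDn : D.Normal] (hD : IsPGroup p D)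
    (H : Subgroup G) [hHn : H.Normal] [Fintype H] (hH : H = D ⊔ Subgroup.centralizer (D : Set G))
    (T : Subgroup G) (hHT : H ≤ T) (hpT : ¬ p ∣ H.relIndex T) (b : Set (IrrCharacter H))
    (hbT : ∀ t ∈ T, ∀ θ ∈ b, ∀ θ' : IrrCharacter H,
      (∀ h h' : H, (h' : G) = t * h * t⁻¹ → (θ' : H → ℂ) h' = (θ : H → ℂ) h) → θ' ∈ b)
    (hbT' : ∀ g : G, ∀ θ ∈ b,
      (∀ h h' : H, (h' : G) = g * h * g⁻¹ → (θ : H → ℂ) h' = (θ : H → ℂ) h) → g ∈ T)
    (f : IrrCharacter H → IrrCharacter D) (hf : ∀ θ ∈ b, ∀ θ' ∈ b, f θ = f θ' → θ = θ')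
    (hres : ∀ θ ∈ b, ∀ (y : D) (y' : H), (y' : G) = y →
      (θ : H → ℂ) y' * (f θ : D → ℂ) 1 = (θ : H → ℂ) 1 * (f θ : D → ℂ) y)
    (B : Set (IrrCharacter G))
    (hB : ∀ χ ∈ B, ∃ θ ∈ b, classInner (fun n : H => (χ : G → ℂ) n) (θ : H → ℂ) ≠ 0) :
    Nat.card B ≤ Nat.card D := by
  have h := card_le_frattini hkgv p D hD H hH T hHT hpT b hbT hbT' f hf hres ⊥ bot_le
    (fun θ _ y hy => by rw [Subgroup.mem_bot.1 hy]) B hB
  rwa [Subgroup.index_bot] at h

/-- `#B ≤ |D : D'|` from the block data if all characters of `D` below `b` are linear. -/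
theorem card_le_lin {G : Type u} [Group G] [Finite G] (hkgv : H591.KGV.KGVStatement.{u})
    (p : ℕ) [hp : Fact p.Prime] (D : Subgroup G) [hDn : D.Normal] (hD : IsPGroup p D)
    (H : Subgroup G) [hHn : H.Normal] [Fintype H] (hH : H = D ⊔ Subgroup.centralizer (D : Set G))
    (T : Subgroup G) (hHT : H ≤ T) (hpT : ¬ p ∣ H.relIndex T) (b : Set (IrrCharacter H))
    (hbT : ∀ t ∈ T, ∀ θ ∈ b, ∀ θ' : IrrCharacter H,
      (∀ h h' : H, (h' : G) = t * h * t⁻¹ → (θ' : H → ℂ) h' = (θ : H → ℂ) h) → θ' ∈ b)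
    (hbT' : ∀ g : G, ∀ θ ∈ b,
      (∀ h h' : H, (h' : G) = g * h * g⁻¹ → (θ : H → ℂ) h' = (θ : H → ℂ) h) → g ∈ T)
    (f : IrrCharacter H → IrrCharacter D) (hf : ∀ θ ∈ b, ∀ θ' ∈ b, f θ = f θ' → θ = θ')
    (hres : ∀ θ ∈ b, ∀ (y : D) (y' : H), (y' : G) = y →
      (θ : H → ℂ) y' * (f θ : D → ℂ) 1 = (θ : H → ℂ) 1 * (f θ : D → ℂ) y)
    (hlin : ∀ θ ∈ b, (f θ : D → ℂ) 1 = 1)
    (B : Set (IrrCharacter G))
    (hB : ∀ χ ∈ B, ∃ θ ∈ b, classInner (fun n : H => (χ : G → ℂ) n) (θ : H → ℂ) ≠ 0) :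
    Nat.card B ≤ (commutator ↥D).index := by
  refine card_le_frattini hkgv p D hD H hH T hHT hpT b hbT hbT' f hf hres (commutator ↥D)
    (Lib.FrattiniBasic.commutator_le_frattini hD) (fun θ hθ y hy => ?_) B hB
  obtain ⟨l, hl⟩ := CharactersDeep.LinearExt.exists_hom_of_isCharacter
    (isIrr_isCharacter (f θ).2) (hlin θ hθ)
  have h1 : l y = 1 := by
    have h2 : commutator ↥D ≤ l.ker := Abelianization.commutator_subset_ker l
    exact h2 hy
  rw [← hl, ← hl, h1, map_one]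

end Cfsg.Agent.H601.KGV
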