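import Cfsg.Agent.H601.KGV.SemiCount

/-!
# `∑ λ ∈ Irr D, |A_λ| k(A_λ) ≤ |A| k(D ⋊ A)` for coprime action: the semidirect product
-/

set_option autoImplicit false
set_option linter.style.haveILetI false
set_option linter.unusedSectionVars false

namespace Cfsg.Agent.H601.KGV

open Cfsg Cfsg.Agent.Characters.Core Cfsg.Agent.Characters.Clifford Cfsg.Agent.OddOrderCharacters
  Cfsg.Agent.OddOrderCharacters.IndRes Cfsg.Agent.OddOrderCharacters.NormalInduced
  Cfsg.Agent.OddOrderCharacters.PF9.CliffGen Cfsg.Agent.Blocks.Covering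
  Cfsg.Agent.H672 Cfsg.Agent.H672.RM

universe u v

theorem card_conj_congr {A : Type u} {B : Type v} [Group A] [Group B] [Finite A] [Finite B]
    (e : A ≃* B) : Nat.card (ConjClasses A) = Nat.card (ConjClasses B) := by
  rw [← card_irr, ← card_irr]
  exact Nat.card_congr (irrEquiv e).symm

/-- A quotient `S / H` given by a surjective homomorphism. -/
theorem quot_eq {G : Type u} {A : Type v} [Group G] [Finite G] [Group A] [Finite A]
    (H S : Subgroup G) [H.Normal] (hHS : H ≤ S) (π : S →* A) (hπ : Function.Surjective π)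
    (hker : ∀ s : S, π s = 1 ↔ (s : G) ∈ H) :
    Nat.card S = Nat.card H * Nat.card A ∧
      Nat.card (ConjClasses (S ⧸ H.subgroupOf S)) = Nat.card (ConjClasses A) := by
  have hk : H.subgroupOf S = π.ker := by
    ext s
    rw [Subgroup.mem_subgroupOf, MonoidHom.mem_ker, hker]
  have e : S ⧸ H.subgroupOf S ≃* A :=
    (QuotientGroup.quotientMulEquivOfEq hk).trans (QuotientGroup.quotientKerEquivOfSurjective π hπ)
  refine ⟨?_, card_conj_congr e⟩
  rw [Subgroup.card_eq_card_quotient_mul_card_subgroup (H.subgroupOf S), Nat.card_congr e.toEquiv,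
    Nat.card_congr (Subgroup.subgroupOfEquivOfLe hHS).toEquiv, mul_comm]

section semi

variable {D : Type u} {A : Type u} [Group D] [Group A] [Finite D] [Finite A]

/-- The stabiliser of a character of `D` in `A`. -/
def stA (φ : A →* MulAut D) (lam : IrrCharacter D) : Subgroup A where
  carrier := {a | ∀ d : D, (lam : D → ℂ) (φ a d) = (lam : D → ℂ) d}
  one_mem' := fun d => by rw [map_one]; rfl
  mul_mem' := fun {a b} ha hb d => by
    rw [map_mul, MulAut.mul_apply, ha, hb]
  inv_mem' := fun {a} ha d => by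
    have h := ha (φ a⁻¹ d)
    rw [← MulAut.mul_apply, ← map_mul, mul_inv_cancel, map_one, MulAut.one_apply] at h
    exact h.symm

theorem mem_stA {φ : A →* MulAut D} {lam : IrrCharacter D} {a : A} :
    a ∈ stA φ lam ↔ ∀ d : D, (lam : D → ℂ) (φ a d) = (lam : D → ℂ) d := Iff.rfl

theorem semi_sum_le (φ : A →* MulAut D) (hcop : (Nat.card D).Coprime (Nat.card A))
    [Fintype (IrrCharacter D)] :
    ∑ lam : IrrCharacter D, Nat.card (stA φ lam) * Nat.card (ConjClasses (stA φ lam)) ≤
      Nat.card A * Nat.card (ConjClasses (D ⋊[φ] A)) := by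
  classical
  letI : Finite (D ⋊[φ] A) := Finite.of_equiv _ (SemidirectProduct.equivProd (φ := φ)).symm
  set H : Subgroup (D ⋊[φ] A) := (SemidirectProduct.inl : D →* D ⋊[φ] A).range with hH
  haveI hHn : H.Normal := by
    rw [hH, SemidirectProduct.range_inl_eq_ker_rightHom]
    exact MonoidHom.normal_ker _
  letI := Fintype.ofFinite H
  let e : D ≃* H := MonoidHom.ofInjective SemidirectProduct.inl_injective
  have he : ∀ d : D, ((e d : H) : D ⋊[φ] A) = SemidirectProduct.inl d := fun d => rfl
  have hcard : Nat.card (D ⋊[φ] A) = Nat.card D * Nat.card A := by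
    rw [Nat.card_congr (SemidirectProduct.equivProd (φ := φ)), Nat.card_prod]
  have hcH : Nat.card H = Nat.card D := (Nat.card_congr e.toEquiv).symm
  have hidx : H.index = Nat.card A := by
    have h1 := H.card_mul_index
    rw [hcH, hcard] at h1
    exact Nat.eq_of_mul_eq_mul_left Nat.card_pos h1
  haveI := finite_irr (G := H)
  letI := Fintype.ofFinite (IrrCharacter H)
  have key := sum_le_card_mul H (by rw [hcH, hidx]; exact hcop)
  -- rewrite the sum
  let E : IrrCharacter D ≃ IrrCharacter H := irrEquiv e.symm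
  have hE : ∀ (lam : IrrCharacter D) (h : H), (E lam : H → ℂ) h = (lam : D → ℂ) (e.symm h) :=
    fun lam h => rfl
  rw [← E.sum_comp] at key
  have hterm : ∀ lam : IrrCharacter D,
      Nat.card (PF9.CliffGen.inertia H (E lam : H → ℂ)) * Nat.card (ConjClasses
        (↥(PF9.CliffGen.inertia H (E lam : H → ℂ)) ⧸
          H.subgroupOf (PF9.CliffGen.inertia H (E lam : H → ℂ)))) =
      Nat.card D * (Nat.card (stA φ lam) * Nat.card (ConjClasses (stA φ lam))) := by
    intro lam
    have hmem : ∀ x : D ⋊[φ] A, x ∈ PF9.CliffGen.inertia H (E lam : H → ℂ) ↔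
        x.right ∈ stA φ lam := by
      intro x
      rw [PF9.CliffGen.mem_inertia', mem_stA]
      have h1 : ∀ (d : D) (hx : x * (e d : D ⋊[φ] A) * x⁻¹ ∈ H),
          (E lam : H → ℂ) ⟨x * (e d : D ⋊[φ] A) * x⁻¹, hx⟩ = (lam : D → ℂ) (φ x.right d) := by
        intro d hx
        have h2 : (⟨x * (e d : D ⋊[φ] A) * x⁻¹, hx⟩ : H) =
            e (x.left * φ x.right d * x.left⁻¹) := by
          apply Subtype.ext
          change x * SemidirectProduct.inl d * x⁻¹ = SemidirectProduct.inl _
          ext
          · simp [mul_assoc]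
          · simp
        rw [h2, hE, MulEquiv.symm_apply_apply]
        exact isIrr_isClassFunction lam.2 _ _
      constructor
      · intro h d
        have h3 := h (e d)
        rw [h1 d, hE, MulEquiv.symm_apply_apply] at h3
        exact h3
      · intro h y
        obtain ⟨d, rfl⟩ := e.surjective y
        rw [h1 d, hE, MulEquiv.symm_apply_apply]
        exact h d
    have hHS : H ≤ PF9.CliffGen.inertia H (E lam : H → ℂ) :=
      PF9.CliffGen.le_inertia (isIrr_isClassFunction (E lam).2)
    let π : PF9.CliffGen.inertia H (E lam : H → ℂ) →* stA φ lam :=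
      { toFun := fun x => ⟨(x : D ⋊[φ] A).right, (hmem x).1 x.2⟩
        map_one' := rfl
        map_mul' := fun x y => rfl }
    have hπ : Function.Surjective π := by
      intro a
      refine ⟨⟨SemidirectProduct.inr (a : A), (hmem _).2 ?_⟩, ?_⟩
      · rw [SemidirectProduct.right_inr]; exact a.2
      · exact Subtype.ext (SemidirectProduct.right_inr (φ := φ) (a : A))
    have hker : ∀ s : PF9.CliffGen.inertia H (E lam : H → ℂ), π s = 1 ↔ (s : D ⋊[φ] A) ∈ H := by
      intro s
      have h1 : π s = 1 ↔ (s : D ⋊[φ] A).right = 1 := by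
        rw [Subtype.ext_iff]
        rfl
      have h2 : ∀ x : D ⋊[φ] A, x ∈ H ↔ x.right = 1 := by
        intro x
        rw [hH, SemidirectProduct.range_inl_eq_ker_rightHom, MonoidHom.mem_ker]
        rfl
      rw [h1, h2]
    obtain ⟨h1, h2⟩ := quot_eq H _ hHS π hπ hker
    rw [h1, h2, hcH, mul_assoc]
  simp_rw [hterm] at key
  rw [← Finset.mul_sum, hcard, mul_assoc] at key
  exact Nat.le_of_mul_le_mul_left key Nat.card_pos

end semi

end Cfsg.Agent.H601.KGV
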