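import Cfsg.Agent.H675.Nd.Cliff
import Cfsg.Agent.H601.KGV.CliffCount

/-!
# `∑ λ ∈ Irr D, |A_λ| k(A_λ) ≤ |A| k(D ⋊ A)` for coprime action
-/

set_option autoImplicit false
set_option linter.style.haveILetI false
set_option linter.unusedSectionVars false

namespace Cfsg.Agent.H601.KGV

open Cfsg Cfsg.Agent.Characters.Core Cfsg.Agent.Characters.Clifford Cfsg.Agent.OddOrderCharacters
  Cfsg.Agent.OddOrderCharacters.IndRes Cfsg.Agent.OddOrderCharacters.NormalInduced
  Cfsg.Agent.OddOrderCharacters.PF9.CliffGen Cfsg.Agent.Blocks.Covering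
  Cfsg.Agent.H672 Cfsg.Agent.H672.RM

universe u

variable {G : Type u} [Group G] [Finite G]

/-- The number of irreducible characters over `θ` is at least `k(G_θ/H)`, coprime case. -/
theorem le_card_over (H : Subgroup G) [hH : H.Normal] [Fintype H]
    (hcop : (Nat.card H).Coprime H.index) (θ : IrrCharacter H) :
    Nat.card (ConjClasses (↥(PF9.CliffGen.inertia H (θ : H → ℂ)) ⧸
      H.subgroupOf (PF9.CliffGen.inertia H (θ : H → ℂ)))) ≤
    Nat.card {χ : IrrCharacter G // classInner (fun n : H => (χ : G → ℂ) n) (θ : H → ℂ) ≠ 0} := by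
  classical
  letI := Fintype.ofFinite G
  set T := PF9.CliffGen.inertia H (θ : H → ℂ) with hT
  letI := Fintype.ofFinite T
  haveI := finite_irr (G := G)
  have hHT : H ≤ T := PF9.CliffGen.le_inertia (isIrr_isClassFunction θ.2)
  have hTm : ∀ g, g ∈ T ↔ conjFn H (θ : H → ℂ) g = θ := fun g => PF9.CliffGen.mem_inertia
  have hnrm : ∀ g : G, g ∈ Subgroup.normalizer (H : Set G) := fun g => by
    rw [Subgroup.normalizer_eq_top]; exact Subgroup.mem_top g
  have hTN : T ≤ Subgroup.normalizer (H : Set G) := fun g _ => hnrm g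
  have hTs : T ≤ stab (θ : H → ℂ) := by
    intro g hg
    refine ⟨hnrm g, ?_⟩
    funext h
    rw [tw_apply (hnrm g)]
    exact PF9.CliffGen.mem_inertia'.1 hg h
  have hc : (Nat.card H).Coprime (H.relIndex T) :=
    hcop.coprime_dvd_right (Subgroup.relIndex_dvd_index_of_normal H T)
  obtain ⟨χ, hχ, hres⟩ := H675.Nd.exists_ext hHT θ.2 hTs hc
  have hgal := H675.Nd.gal hHT hTN θ.2 hχ hres
  rw [← card_irr]
  have hβ : ∀ β : IrrCharacter (T ⧸ H.subgroupOf T),
      IsIrrCharacter T ((β : T ⧸ H.subgroupOf T → ℂ) ∘ QuotientGroup.mk' (H.subgroupOf T)) ∧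
      ∀ k : H, ((β : T ⧸ H.subgroupOf T → ℂ) ∘ QuotientGroup.mk' (H.subgroupOf T))
        (Subgroup.inclusion hHT k) =
        ((β : T ⧸ H.subgroupOf T → ℂ) ∘ QuotientGroup.mk' (H.subgroupOf T)) 1 := by
    intro β
    refine ⟨isIrr_comp (QuotientGroup.mk' (H.subgroupOf T)) (QuotientGroup.mk'_surjective _) β.2,
      fun k => ?_⟩
    have h1 : QuotientGroup.mk' (H.subgroupOf T) (Subgroup.inclusion hHT k) = 1 := by
      rw [QuotientGroup.mk'_apply, QuotientGroup.eq_one_iff, Subgroup.mem_subgroupOf]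
      exact k.2
    rw [Function.comp, Function.comp, h1, map_one]
  have hmap := fun β => hgal.mapsTo (hβ β)
  have hirr : ∀ β : IrrCharacter (T ⧸ H.subgroupOf T), IsIrrCharacter G (indFun T
      (((β : T ⧸ H.subgroupOf T → ℂ) ∘ QuotientGroup.mk' (H.subgroupOf T)) * χ)) := fun β =>
    PF9.CliffGen.irr_ind θ.2 hTm hHT (hmap β).1 ((over_resTo hHT _ _).1 (hmap β).2)
  refine Nat.card_le_card_of_injective (fun β => ⟨⟨_, hirr β⟩,
    (over_res _ _).1 (over_indFun H θ.2 T hHT (hmap β).1 (hirr β) (hmap β).2)⟩) ?_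
  intro β β' h
  have h1 : indFun T (((β : T ⧸ H.subgroupOf T → ℂ) ∘ QuotientGroup.mk' (H.subgroupOf T)) * χ) =
      indFun T (((β' : T ⧸ H.subgroupOf T → ℂ) ∘ QuotientGroup.mk' (H.subgroupOf T)) * χ) :=
    congrArg (fun x : {χ : IrrCharacter G // classInner (fun n : H => (χ : G → ℂ) n)
      (θ : H → ℂ) ≠ 0} => ((x.1 : IrrCharacter G) : G → ℂ)) h
  have h2 := PF9.CliffGen.ind_inj θ.2 hTm hHT (hmap β).1 (hmap β').1
    ((over_resTo hHT _ _).1 (hmap β).2) ((over_resTo hHT _ _).1 (hmap β').2) h1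
  have h3 := hgal.injOn (hβ β) (hβ β') h2
  exact Subtype.ext ((QuotientGroup.mk'_surjective _).injective_comp_right h3)

/-- The inertia groups of the conjugates of `θ₀` add up to at most `|G|`. -/
theorem sum_inertia_le_card (H : Subgroup G) [hH : H.Normal]
    (θ₀ : IrrCharacter H) (s : Finset (IrrCharacter H)) (hs : ∀ θ ∈ s, ∃ x : G, conjIrr H x θ₀ = θ) :
    ∑ θ ∈ s, Nat.card (PF9.CliffGen.inertia H (θ : H → ℂ)) ≤ Nat.card G := by
  classical
  letI := Fintype.ofFinite G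
  have h1 : (Finset.univ.filter fun x : G => conjIrr H x θ₀ ∈ s).card =
      ∑ θ ∈ s, ((Finset.univ.filter fun x : G => conjIrr H x θ₀ ∈ s).filter
        fun x => conjIrr H x θ₀ = θ).card :=
    Finset.card_eq_sum_card_fiberwise (fun x hx => (Finset.mem_filter.1 hx).2)
  have h2 : (Finset.univ.filter fun x : G => conjIrr H x θ₀ ∈ s).card ≤ Nat.card G := by
    rw [Nat.card_eq_fintype_card]
    exact Finset.card_le_univ _
  refine le_trans ?_ h2
  rw [h1]
  refine Finset.sum_le_sum fun θ hθ => ?_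
  obtain ⟨x₀, hx₀⟩ := hs θ hθ
  have e : ((Finset.univ.filter fun x : G => conjIrr H x θ₀ ∈ s).filter
        fun x => conjIrr H x θ₀ = θ).card = Nat.card {x : G // conjIrr H x θ₀ = θ} := by
    rw [Nat.card_eq_fintype_card, Fintype.card_subtype]
    congr 1
    ext x
    simp only [Finset.mem_filter, Finset.mem_univ, true_and]
    exact ⟨fun h => h.2, fun h => ⟨h ▸ hθ, h⟩⟩
  rw [e]
  have hmem : ∀ g : PF9.CliffGen.inertia H (θ : H → ℂ), conjIrr H (x₀ * (g : G)) θ₀ = θ := by
    intro g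
    rw [← conjIrr_conjIrr, hx₀]
    exact KGV.mem_inertia_iff.1 g.2
  refine Nat.card_le_card_of_injective (fun g => (⟨x₀ * (g : G), hmem g⟩ :
    {x : G // conjIrr H x θ₀ = θ})) ?_
  intro g g' h
  exact Subtype.ext (mul_left_cancel (congrArg Subtype.val h))

/-- `∑ θ ∈ Irr H, |G_θ| k(G_θ/H) ≤ |G| k(G)` for a normal Hall subgroup `H`. -/
theorem sum_le_card_mul (H : Subgroup G) [hH : H.Normal] [Fintype H]
    (hcop : (Nat.card H).Coprime H.index) [Fintype (IrrCharacter H)] :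
    ∑ θ : IrrCharacter H, Nat.card (PF9.CliffGen.inertia H (θ : H → ℂ)) *
      Nat.card (ConjClasses (↥(PF9.CliffGen.inertia H (θ : H → ℂ)) ⧸
        H.subgroupOf (PF9.CliffGen.inertia H (θ : H → ℂ)))) ≤
      Nat.card G * Nat.card (ConjClasses G) := by
  classical
  letI := Fintype.ofFinite G
  haveI := finite_irr (G := G)
  letI := Fintype.ofFinite (IrrCharacter G)
  have h1 : ∀ χ : IrrCharacter G, ∑ θ ∈ Finset.univ.filter (fun θ : IrrCharacter H =>
      classInner (fun n : H => (χ : G → ℂ) n) (θ : H → ℂ) ≠ 0),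
        Nat.card (PF9.CliffGen.inertia H (θ : H → ℂ)) ≤ Nat.card G := by
    intro χ
    rcases (Finset.univ.filter (fun θ : IrrCharacter H =>
      classInner (fun n : H => (χ : G → ℂ) n) (θ : H → ℂ) ≠ 0)).eq_empty_or_nonempty with h | ⟨θ₀, h0⟩
    · rw [h, Finset.sum_empty]; exact Nat.zero_le _
    · refine sum_inertia_le_card H θ₀ _ fun θ hθ => ?_
      rw [Finset.mem_filter] at h0 hθ
      obtain ⟨g, hg⟩ := exists_conj_of_constituents H χ.2 θ₀.2 θ.2 h0.2 hθ.2
      exact ⟨g, Subtype.ext hg.symm⟩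
  calc ∑ θ : IrrCharacter H, Nat.card (PF9.CliffGen.inertia H (θ : H → ℂ)) *
      Nat.card (ConjClasses (↥(PF9.CliffGen.inertia H (θ : H → ℂ)) ⧸
        H.subgroupOf (PF9.CliffGen.inertia H (θ : H → ℂ))))
      ≤ ∑ θ : IrrCharacter H, Nat.card (PF9.CliffGen.inertia H (θ : H → ℂ)) *
        Nat.card {χ : IrrCharacter G // classInner (fun n : H => (χ : G → ℂ) n) (θ : H → ℂ) ≠ 0} :=
        Finset.sum_le_sum fun θ _ => Nat.mul_le_mul_left _ (le_card_over H hcop θ)
    _ = ∑ θ : IrrCharacter H, ∑ χ : IrrCharacter G,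
        if classInner (fun n : H => (χ : G → ℂ) n) (θ : H → ℂ) ≠ 0 then
        Nat.card (PF9.CliffGen.inertia H (θ : H → ℂ)) else 0 := by
        refine Finset.sum_congr rfl fun θ _ => ?_
        rw [← Finset.sum_filter, Finset.sum_const, smul_eq_mul, mul_comm, Nat.card_eq_fintype_card
          (α := {χ : IrrCharacter G // classInner (fun n : H => (χ : G → ℂ) n) (θ : H → ℂ) ≠ 0}),
          Fintype.card_subtype]
    _ = ∑ χ : IrrCharacter G, ∑ θ ∈ Finset.univ.filter (fun θ : IrrCharacter H =>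
      classInner (fun n : H => (χ : G → ℂ) n) (θ : H → ℂ) ≠ 0),
        Nat.card (PF9.CliffGen.inertia H (θ : H → ℂ)) := by
        rw [Finset.sum_comm]
        refine Finset.sum_congr rfl fun χ _ => ?_
        rw [Finset.sum_filter]
    _ ≤ ∑ χ : IrrCharacter G, Nat.card G := Finset.sum_le_sum fun χ _ => h1 χ
    _ = _ := by
        rw [Finset.sum_const, Finset.card_univ, smul_eq_mul, mul_comm, ← Nat.card_eq_fintype_card
          (α := IrrCharacter G), card_irr]

end Cfsg.Agent.H601.KGV
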